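import Cfsg.Agent.Lib.Helper19.KAlt.Defs

/-!
# KALT (S0747) package [SEMIEVEN]
-/

set_option autoImplicit false

namespace Cfsg.Agent.Lib.Helper84.KAlt

open Cfsg.Agent.Lib.Helper75.LW Cfsg.Agent.Lib.Helper19.KAlt

universe u

theorem pkgSemiEven : PkgSemiEven.{u} := by
  intro α _ _ G k hk hT hTriv hNI Δ hΔ σ
  classical
  -- (i) an involution fixing a `k`-set
  unfold NoInv at hNI
  push_neg at hNI
  obtain ⟨s0, hs0, u0, hu0G, hu0sq, hu0fix, hu0ne⟩ := hNI
  -- every `k`-set is the exact fixed point set of an involution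
  have hinv : ∀ s : Finset α, s.card = k → ∃ u ∈ G, u * u = 1 ∧ (∀ a ∈ s, u a = a) ∧
      ∀ b, u b = b → b ∈ s := by
    intro s hs
    let x : Fin k ↪ α :=
      (s0.equivFinOfCardEq hs0).symm.toEmbedding.trans (Function.Embedding.subtype _)
    let y : Fin k ↪ α :=
      (s.equivFinOfCardEq hs).symm.toEmbedding.trans (Function.Embedding.subtype _)
    obtain ⟨g, hgG, hg⟩ := hT x y
    have hsq : g * u0 * g⁻¹ * (g * u0 * g⁻¹) = 1 := by
      calc g * u0 * g⁻¹ * (g * u0 * g⁻¹) = g * (u0 * u0) * g⁻¹ := by group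
        _ = 1 := by rw [hu0sq]; group
    have hne : g * u0 * g⁻¹ ≠ 1 := by
      intro h
      apply hu0ne
      calc u0 = g⁻¹ * (g * u0 * g⁻¹) * g := by group
        _ = 1 := by rw [h]; group
    have hfix : ∀ a ∈ s, (g * u0 * g⁻¹) a = a := by
      intro a ha
      have ha' : a = y (s.equivFinOfCardEq hs ⟨a, ha⟩) := by
        simp [y]
      rw [ha', ← hg]
      simp only [Equiv.Perm.mul_apply]
      have e : g⁻¹ (g (x (s.equivFinOfCardEq hs ⟨a, ha⟩))) = x (s.equivFinOfCardEq hs ⟨a, ha⟩) := by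
        simp
      rw [e]
      congr 1
      apply hu0fix
      simp [x]
    have hmem : g * u0 * g⁻¹ ∈ G := G.mul_mem (G.mul_mem hgG hu0G) (G.inv_mem hgG)
    refine ⟨g * u0 * g⁻¹, hmem, hsq, hfix, ?_⟩
    intro b hb
    by_contra hbs
    apply hne
    apply hTriv (insert b s) (by rw [Finset.card_insert_of_notMem hbs, hs]) _ hmem
    intro a ha
    rcases Finset.mem_insert.mp ha with rfl | ha
    · exact hb
    · exact hfix a ha
  -- (ii) transpositions
  have hswap : ∀ x v : α, x ∈ Δ → v ∈ Δ → x ≠ v →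
      ∃ s ∈ G, s x = v ∧ s v = x ∧ ∀ a ∈ Δ, a ≠ x → a ≠ v → s a = a := by
    intro x v hx hv hxv
    obtain ⟨ux, huxG, huxsq, huxfix, huxonly⟩ := hinv (Δ.erase v) (by
      rw [Finset.card_erase_of_mem hv, hΔ]; rfl)
    obtain ⟨uv, huvG, huvsq, huvfix, huvonly⟩ := hinv (Δ.erase x) (by
      rw [Finset.card_erase_of_mem hx, hΔ]; rfl)
    have hL0x : ∀ a ∈ Δ, a ≠ x → a ≠ v → ux a = a := fun a ha _ hav =>
      huxfix a (Finset.mem_erase.mpr ⟨hav, ha⟩)
    have hL0v : ∀ a ∈ Δ, a ≠ x → a ≠ v → uv a = a := fun a ha hax _ =>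
      huvfix a (Finset.mem_erase.mpr ⟨hax, ha⟩)
    have hux_x : ux x = x := huxfix x (Finset.mem_erase.mpr ⟨hxv, hx⟩)
    have huv_v : uv v = v := huvfix v (Finset.mem_erase.mpr ⟨hxv.symm, hv⟩)
    have huxinv : ux⁻¹ = ux := inv_eq_of_mul_eq_one_left huxsq
    have huvinv : uv⁻¹ = uv := inv_eq_of_mul_eq_one_left huvsq
    obtain ⟨c, hc⟩ : ∃ c, c = ux * uv := ⟨_, rfl⟩
    have hcG : c ∈ G := by rw [hc]; exact G.mul_mem huxG huvG
    have hcinv : c⁻¹ = uv * ux := by rw [hc, mul_inv_rev, huxinv, huvinv]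
    have hcx : ux * c * ux⁻¹ = c⁻¹ := by
      rw [hcinv, huxinv, hc]
      calc ux * (ux * uv) * ux = (ux * ux) * (uv * ux) := by group
        _ = uv * ux := by rw [huxsq, one_mul]
    have hcv : uv * c * uv⁻¹ = c⁻¹ := by
      rw [hcinv, huvinv, hc]
      calc uv * (ux * uv) * uv = (uv * ux) * (uv * uv) := by group
        _ = uv * ux := by rw [huvsq, mul_one]
    have hcxpow : ∀ j : ℕ, ux * c ^ j = (c ^ j)⁻¹ * ux := by
      intro j
      have h1 : ux * c ^ j * ux⁻¹ = (c ^ j)⁻¹ := by rw [← conj_pow, hcx, inv_pow]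
      calc ux * c ^ j = (ux * c ^ j * ux⁻¹) * ux := by group
        _ = (c ^ j)⁻¹ * ux := by rw [h1]
    have hcvpow : ∀ j : ℕ, uv * c ^ j = (c ^ j)⁻¹ * uv := by
      intro j
      have h1 : uv * c ^ j * uv⁻¹ = (c ^ j)⁻¹ := by rw [← conj_pow, hcv, inv_pow]
      calc uv * c ^ j = (uv * c ^ j * uv⁻¹) * uv := by group
        _ = (c ^ j)⁻¹ * uv := by rw [h1]
    have hcL0 : ∀ a ∈ Δ, a ≠ x → a ≠ v → ∀ j : ℕ, (c ^ j) a = a := by
      intro a ha hax hav j
      apply Equiv.Perm.pow_apply_eq_self_of_apply_eq_self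
      rw [hc, Equiv.Perm.mul_apply, hL0v a ha hax hav, hL0x a ha hax hav]
    have hm0 : 0 < orderOf c := orderOf_pos c
    rcases Nat.even_or_odd (orderOf c) with ⟨j, hj⟩ | ⟨j, hj⟩
    · -- even order: contradiction
      exfalso
      have hj0 : j ≠ 0 := by omega
      have hjlt : j < orderOf c := by omega
      have hz1 : c ^ j ≠ 1 := pow_ne_one_of_lt_orderOf hj0 hjlt
      have hzsq : c ^ j * c ^ j = 1 := by
        rw [← pow_add, ← hj, pow_orderOf_eq_one]
      have hzinv : (c ^ j)⁻¹ = c ^ j := inv_eq_of_mul_eq_one_left hzsq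
      have hzx : ux * c ^ j = c ^ j * ux := by rw [hcxpow, hzinv]
      have hzv : uv * c ^ j = c ^ j * uv := by rw [hcvpow, hzinv]
      have hzfx : (c ^ j) x = x := by
        have h1 : ux ((c ^ j) x) = (c ^ j) x := by
          rw [← Equiv.Perm.mul_apply, hzx, Equiv.Perm.mul_apply, hux_x]
        have h2 := Finset.mem_erase.mp (huxonly _ h1)
        by_contra h3
        have h4 := hcL0 _ h2.2 h3 h2.1 j
        exact h3 ((c ^ j).injective h4)
      have hzfv : (c ^ j) v = v := by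
        have h1 : uv ((c ^ j) v) = (c ^ j) v := by
          rw [← Equiv.Perm.mul_apply, hzv, Equiv.Perm.mul_apply, huv_v]
        have h2 := Finset.mem_erase.mp (huvonly _ h1)
        by_contra h3
        have h4 := hcL0 _ h2.2 h2.1 h3 j
        exact h3 ((c ^ j).injective h4)
      apply hz1
      apply hTriv Δ hΔ _ (G.pow_mem hcG j)
      intro a ha
      by_cases hax : a = x
      · rw [hax]; exact hzfx
      · by_cases hav : a = v
        · rw [hav]; exact hzfv
        · exact hcL0 a ha hax hav j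
    · -- odd order: the transposition
      have hcj : c ^ (j + 1) * c ^ j = 1 := by
        rw [← pow_add]
        have : j + 1 + j = orderOf c := by omega
        rw [this, pow_orderOf_eq_one]
      have hcjinv : (c ^ (j + 1))⁻¹ = c ^ j := by
        rw [inv_eq_iff_eq_inv]
        exact (eq_inv_of_mul_eq_one_left hcj)
      have hs1 : uv * (c ^ j * ux) = c ^ j := by
        calc uv * (c ^ j * ux) = (uv * c ^ j) * ux := by group
          _ = (c ^ j)⁻¹ * (uv * ux) := by rw [hcvpow]; group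
          _ = (c ^ j)⁻¹ * c⁻¹ := by rw [hcinv]
          _ = (c ^ (j + 1))⁻¹ := by rw [pow_succ', mul_inv_rev]
          _ = c ^ j := hcjinv
      have hs2 : (c ^ j * ux) * ux = c ^ j := by
        rw [mul_assoc, huxsq, mul_one]
      have hssq : (c ^ j * ux) * (c ^ j * ux) = 1 := by
        calc (c ^ j * ux) * (c ^ j * ux) = c ^ j * (ux * c ^ j) * ux := by group
          _ = c ^ j * ((c ^ j)⁻¹ * ux) * ux := by rw [hcxpow]
          _ = ux * ux := by group
          _ = 1 := huxsq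
      have hsL0 : ∀ a ∈ Δ, a ≠ x → a ≠ v → (c ^ j * ux) a = a := by
        intro a ha hax hav
        rw [Equiv.Perm.mul_apply, hL0x a ha hax hav, hcL0 a ha hax hav]
      have hsx : (c ^ j * ux) x = v := by
        have h1 : uv ((c ^ j * ux) x) = (c ^ j * ux) x := by
          rw [← Equiv.Perm.mul_apply, hs1, Equiv.Perm.mul_apply, hux_x]
        have h2 := Finset.mem_erase.mp (huvonly _ h1)
        by_contra h3
        have h4 := hsL0 _ h2.2 h2.1 h3
        exact h2.1 ((c ^ j * ux).injective h4)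
      refine ⟨c ^ j * ux, G.mul_mem (G.pow_mem hcG j) huxG, hsx, ?_, hsL0⟩
      rw [← hsx, ← Equiv.Perm.mul_apply, hssq]
      rfl
  -- (iii) all permutations
  refine Equiv.Perm.swap_induction_on (motive := fun τ : Equiv.Perm ↥Δ =>
    ∃ g ∈ G, ∀ x : ↥Δ, g (x : α) = τ x) σ ⟨1, G.one_mem, fun x => rfl⟩ ?_
  rintro f x y hxy ⟨g, hgG, hg⟩
  have hxy' : (x : α) ≠ (y : α) := fun h => hxy (Subtype.ext h)
  obtain ⟨s, hsG, hsx, hsy, hsfix⟩ := hswap x y x.2 y.2 hxy'
  refine ⟨s * g, G.mul_mem hsG hgG, fun a => ?_⟩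
  rw [Equiv.Perm.mul_apply, hg a, Equiv.Perm.mul_apply]
  by_cases h1 : f a = x
  · rw [h1, Equiv.swap_apply_left, hsx]
  · by_cases h2 : f a = y
    · rw [h2, Equiv.swap_apply_right, hsy]
    · rw [Equiv.swap_apply_of_ne_of_ne h1 h2]
      exact hsfix _ (f a).2 (fun h => h1 (Subtype.ext h)) (fun h => h2 (Subtype.ext h))

end Cfsg.Agent.Lib.Helper84.KAlt
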